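import Cfsg.Agent.Lib.Helper86.U62.FiUSig
import Cfsg.Prelude.Def_Sporadic

/-!
# The presented Fischer group `Fi₂₂` as a group of 3-transpositions

The conjugacy class of the generator `a` consists of 3510 involutions, any two of which commute or
have a product of order 3; the centraliser of each of them is a non-split double cover of
`PSU₆(2)`.
-/

set_option autoImplicit false
set_option Elab.async false

namespace Cfsg.Agent.Lib.Helper86.FiTr

open Cfsg.Agent.Lib.Helper86.FiU6 Cfsg.Agent.Lib.Helper86.Sp4F4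
open Cfsg.Agent.Lib.Helper29 Cfsg.Agent.Lib.Helper29.TcTrace Cfsg.Agent.Lib.Helper29.TcCert
  Cfsg.Agent.Lib.Helper29.TcPerm Cfsg.Agent.Lib.Helper29.TcCox Cfsg.Agent.Lib.Helper29.OrdBasic
  Cfsg.Agent.Lib.Helper29.OrdCox Cfsg.Agent.Lib.Helper29.OrdPerm Cfsg.Agent.Lib.Helper29.OrdQuot
  Cfsg.Spor

local notation "E" => Fi22.edges
local notation "X" => Fi22.extra
local notation "LW" => lw Fi22.edges Fi22.extra
local notation "LT" => lwT Fi22.edges Fi22.extra
local notation "gA" => lw Fi22.edges Fi22.extra [(Fi22.Gen.a, true)]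
local notation "gB" => lw Fi22.edges Fi22.extra [(Fi22.Gen.b, true)]
local notation "gC" => lw Fi22.edges Fi22.extra [(Fi22.Gen.c, true)]

/-- the tree of a generator -/
abbrev lf (x : Fi22.Gen) : WT Fi22.Gen := .leaf x true

/-- `a b` -/
def tRb : WT Fi22.Gen := .mul (lf .a) (lf .b)

/-- `b c a b` -/
def tRc : WT Fi22.Gen := .mul (.mul (.mul (lf .b) (lf .c)) (lf .a)) (lf .b)

set_option maxRecDepth 100000 in
theorem cb_blk : ∀ k, k < 7 →
    allPts (fun q => Nat.beq (evT FiA.P FiA.colOf (WT.conj tRb (lf .a)) false q)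
      (evT FiA.P FiA.colOf (lf .b) false q)) FiA.P.WL
      (min 512 (3510 - 512 * k)) (FiA.P.WL * (512 * k)) = true := by
  intro k hk
  interval_cases k <;> decide +kernel

theorem cb_tree : LT (WT.conj tRb (lf .a)) = LT (lf .b) :=
  lwT_eq_of_chk FiA.ok FiMain.card_inj.2 _ _
    (allPts_blocks (fun q => Nat.beq (evT FiA.P FiA.colOf (WT.conj tRb (lf .a)) false q)
      (evT FiA.P FiA.colOf (lf .b) false q)) FiA.P.WL 512 3510 7 (by decide) (by decide) cb_blk)

set_option maxRecDepth 100000 in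
theorem cc_blk : ∀ k, k < 7 →
    allPts (fun q => Nat.beq (evT FiA.P FiA.colOf (WT.conj tRc (lf .a)) false q)
      (evT FiA.P FiA.colOf (lf .c) false q)) FiA.P.WL
      (min 512 (3510 - 512 * k)) (FiA.P.WL * (512 * k)) = true := by
  intro k hk
  interval_cases k <;> decide +kernel

theorem cc_tree : LT (WT.conj tRc (lf .a)) = LT (lf .c) :=
  lwT_eq_of_chk FiA.ok FiMain.card_inj.2 _ _
    (allPts_blocks (fun q => Nat.beq (evT FiA.P FiA.colOf (WT.conj tRc (lf .a)) false q)
      (evT FiA.P FiA.colOf (lf .c) false q)) FiA.P.WL 512 3510 7 (by decide) (by decide) cc_blk)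

theorem conj_b : LT tRb * gA * (LT tRb)⁻¹ = gB := by
  have h := cb_tree
  rw [lwT_conj] at h
  exact h

theorem conj_c : LT tRc * gA * (LT tRc)⁻¹ = gC := by
  have h := cc_tree
  rw [lwT_conj] at h
  exact h

theorem pt_b : runL FiA.P [0, 1] 0 = 32 := by decide +kernel

theorem pt_c : runL FiA.P [1, 2, 0, 1] 0 = 45072 := by decide +kernel

theorem valid0 : ValidL FiA.P 0 := (lower_hyp FiA.ok).valid_zero

theorem phi_b : φ (LT tRb) 0 = 32 := by
  have h := phi_lw_valid FiA.ok (tRb.flat false) 0 valid0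
  exact h.trans pt_b

theorem phi_c : φ (LT tRc) 0 = 45072 := by
  have h := phi_lw_valid FiA.ok (tRc.flat false) 0 valid0
  exact h.trans pt_c

theorem gsq : gA * gA = 1 := gsq0

theorem gne : gA ≠ 1 := gA_ne

/-- the orbit of length 2816 -/
theorem orbit_eq1 : {y | ∃ h ∈ HH, φ h 16 = y} = {x | x % 16 = 0 ∧ 16 ≤ x ∧ x < 45072} :=
  cox_orbit FiA.ok 16 45072 (by decide) (by decide) (by decide) (by decide)

theorem mem_HH_iff (x : Fi22) : x ∈ HH ↔ φ x 0 = 0 := by
  have h : HH = TcIndex.stab φ 0 := (cox_index_stab FiA.ok).2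
  rw [h]
  exact TcIndex.mem_stab _ _ _

/-- double cosets of the centraliser from its orbits -/
theorem dcoset (lo hi : ℕ)
    (horb : {y | ∃ h ∈ HH, φ h lo = y} = {x | x % 16 = 0 ∧ lo ≤ x ∧ x < hi})
    (r : Fi22) (hr : φ r 0 % 16 = 0 ∧ lo ≤ φ r 0 ∧ φ r 0 < hi) (x : Fi22)
    (hx : φ x 0 % 16 = 0 ∧ lo ≤ φ x 0 ∧ φ x 0 < hi) :
    ∃ h ∈ HH, ∃ h' ∈ HH, x = h * r * h' := by
  have h1 : φ x 0 ∈ {y | ∃ h ∈ HH, φ h lo = y} := by rw [horb]; exact hx
  have h2 : φ r 0 ∈ {y | ∃ h ∈ HH, φ h lo = y} := by rw [horb]; exact hr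
  obtain ⟨a1, ha1, e1⟩ := h1
  obtain ⟨a2, ha2, e2⟩ := h2
  have e3 : φ (a2⁻¹) (φ r 0) = lo := by
    rw [← e2, ← Equiv.Perm.mul_apply, ← map_mul, inv_mul_cancel, map_one, Equiv.Perm.one_apply]
  have h3 : φ (a1 * a2⁻¹ * r) 0 = φ x 0 := by
    rw [mul_assoc, map_mul, Equiv.Perm.mul_apply, map_mul, Equiv.Perm.mul_apply, e3, e1]
  have hst : (a1 * a2⁻¹ * r)⁻¹ * x ∈ HH := by
    rw [mem_HH_iff, map_mul, Equiv.Perm.mul_apply, ← h3, ← Equiv.Perm.mul_apply, ← map_mul,
      inv_mul_cancel, map_one, Equiv.Perm.one_apply]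
  exact ⟨a1 * a2⁻¹, HH.mul_mem ha1 (HH.inv_mem ha2), _, hst, by group⟩

theorem conj_case (h h' r t : Fi22) (hh : h ∈ HH) (hh' : h' ∈ HH) (hr : r * gA * r⁻¹ = t) (n : ℕ)
    (ht : (gA * t) ^ n = 1) : (gA * ((h * r * h') * gA * (h * r * h')⁻¹)) ^ n = 1 := by
  have c1 := a_central hh
  have c2 := a_central hh'
  have e1 : (h * r * h') * gA * (h * r * h')⁻¹ = h * t * h⁻¹ := by
    rw [← hr]
    calc (h * r * h') * gA * (h * r * h')⁻¹ = h * r * (h' * gA) * h'⁻¹ * r⁻¹ * h⁻¹ := by group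
      _ = h * r * (gA * h') * h'⁻¹ * r⁻¹ * h⁻¹ := by rw [c2]
      _ = h * (r * gA * r⁻¹) * h⁻¹ := by group
  have e2 : gA * (h * t * h⁻¹) = h * (gA * t) * h⁻¹ := by
    calc gA * (h * t * h⁻¹) = (gA * h) * t * h⁻¹ := by group
      _ = (h * gA) * t * h⁻¹ := by rw [c1]
      _ = h * (gA * t) * h⁻¹ := by group
  rw [e1, e2, conj_pow, ht, mul_one, mul_inv_cancel]

theorem ab_cube : (gA * gB) ^ 3 = 1 := by
  have h := pair_pow (extra := Fi22.extra) (FiMain.mem_nodes Fi22.Gen.a) (FiMain.mem_nodes Fi22.Gen.b)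
  rw [show coxLabel Fi22.edges Fi22.Gen.a Fi22.Gen.b = 3 from by decide] at h
  exact h

theorem ac_sq : (gA * gC) ^ 2 = 1 := by
  have h := pair_pow (extra := Fi22.extra) (FiMain.mem_nodes Fi22.Gen.a) (FiMain.mem_nodes Fi22.Gen.c)
  rw [show coxLabel Fi22.edges Fi22.Gen.a Fi22.Gen.c = 2 from by decide] at h
  exact h

theorem three (x : Fi22) :
    (gA * (x * gA * x⁻¹)) ^ 2 = 1 ∨ (gA * (x * gA * x⁻¹)) ^ 3 = 1 := by
  have hv : ValidL FiA.P (φ x 0) := phi_valid FiA.ok x 0 valid0
  obtain ⟨h1, h2⟩ := (validL_iff _ _).1 hv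
  have h1' : φ x 0 % 16 = 0 := h1
  have h2' : φ x 0 < 56160 := h2
  rcases Nat.eq_zero_or_pos (φ x 0) with h0 | hpos
  · left
    have hx : x ∈ HH := (mem_HH_iff x).2 h0
    have c := a_central hx
    have e : x * gA * x⁻¹ = gA := by
      rw [c]
      group
    rw [e, gsq, one_pow]
  · by_cases hlt : φ x 0 < 45072
    · right
      obtain ⟨h, hh, h', hh', rfl⟩ := dcoset 16 45072 orbit_eq1 (LT tRb)
        (by rw [phi_b]; norm_num) x ⟨h1', by omega, hlt⟩
      exact conj_case h h' _ _ hh hh' conj_b 3 ab_cube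
    · left
      obtain ⟨h, hh, h', hh', rfl⟩ := dcoset 45072 56160 orbit_eq (LT tRc)
        (by rw [phi_c]; norm_num) x ⟨h1', by omega, h2'⟩
      exact conj_case h h' _ _ hh hh' conj_c 2 ac_sq

theorem three_set : Cfsg.IsThreeTranspositionSet (conjugatesOf gA) := by
  constructor
  · intro d hd
    obtain ⟨g, rfl⟩ := isConj_iff.1 hd
    have : Fact (Nat.Prime 2) := ⟨Nat.prime_two⟩
    apply orderOf_eq_prime
    · rw [conj_pow, pow_two, gsq, mul_one, mul_inv_cancel]
    · intro h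
      apply gne
      calc gA = g⁻¹ * (g * gA * g⁻¹) * g := by group
        _ = 1 := by rw [h]; group
  · intro d hd e he
    obtain ⟨g, rfl⟩ := isConj_iff.1 hd
    obtain ⟨k, rfl⟩ := isConj_iff.1 he
    have e1 : g * gA * g⁻¹ * (k * gA * k⁻¹) =
        g * (gA * ((g⁻¹ * k) * gA * (g⁻¹ * k)⁻¹)) * g⁻¹ := by group
    rw [e1, conj_pow, conj_pow]
    rcases three (g⁻¹ * k) with h | h
    · left
      rw [h, mul_one, mul_inv_cancel]
    · right
      rw [h, mul_one, mul_inv_cancel]

theorem closure_D : Subgroup.closure (conjugatesOf gA) = ⊤ := by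
  rw [← FiMain.hgen]
  unfold Subgroup.normalClosure Group.conjugatesOfSet
  rw [Set.biUnion_singleton]

theorem cent_eq : Subgroup.centralizer ({gA} : Set Fi22) = HH := by
  have hle : HH ≤ Subgroup.centralizer ({gA} : Set Fi22) := by
    intro h hh
    rw [Subgroup.mem_centralizer_iff]
    intro z hz
    rw [Set.mem_singleton_iff] at hz
    subst hz
    exact (a_central hh).symm
  have hsimple : IsSimpleGroup Fi22 := FiMain.fi22_main.1
  have hidx : HH.index = 3510 := (cox_index_stab FiA.ok).1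
  rcases FiMain.maxA.le_iff.1 hle with htop | heq
  · exfalso
    have hcen : gA ∈ Subgroup.center Fi22 := by
      rw [Subgroup.mem_center_iff]
      intro g
      have hg : g ∈ Subgroup.centralizer ({gA} : Set Fi22) := by
        rw [htop]
        exact Subgroup.mem_top g
      exact ((Subgroup.mem_centralizer_iff.1 hg) gA rfl).symm
    rcases (inferInstance : (Subgroup.center Fi22).Normal).eq_bot_or_eq_top with hb | ht
    · rw [hb, Subgroup.mem_bot] at hcen
      exact gne hcen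
    · have hn : HH.Normal := ⟨fun n _ g => by
        have hn' : n ∈ Subgroup.center Fi22 := by
          rw [ht]
          exact Subgroup.mem_top n
        have e : g * n * g⁻¹ = n := by
          rw [Subgroup.mem_center_iff.1 hn' g]
          group
        rw [e]
        assumption⟩
      rcases hn.eq_bot_or_eq_top with hb | ht'
      · rw [hb, Subgroup.index_bot, FiMain.card_inj.1] at hidx
        norm_num at hidx
      · rw [ht', Subgroup.index_top] at hidx
        norm_num at hidx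
  · exact heq

theorem card_D : Nat.card (conjugatesOf gA) = 3510 := by
  rw [← (cox_index_stab FiA.ok).1, Subgroup.index_eq_card]
  symm
  let f : Fi22 ⧸ HH → conjugatesOf gA := fun q => Quotient.liftOn' q
    (fun x => (⟨x * gA * x⁻¹, isConj_iff.2 ⟨x, rfl⟩⟩ : conjugatesOf gA)) (by
      intro x y hxy
      rw [QuotientGroup.leftRel_apply] at hxy
      apply Subtype.ext
      have c := a_central hxy
      change x * gA * x⁻¹ = y * gA * y⁻¹
      calc x * gA * x⁻¹ = x * (gA * (x⁻¹ * y)) * y⁻¹ := by group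
        _ = x * ((x⁻¹ * y) * gA) * y⁻¹ := by rw [c]
        _ = y * gA * y⁻¹ := by group)
  apply Nat.card_congr (Equiv.ofBijective f ⟨?_, ?_⟩)
  · intro q1 q2
    refine Quotient.inductionOn₂' q1 q2 (fun x y hxy => ?_)
    have h1 : x * gA * x⁻¹ = y * gA * y⁻¹ := congrArg Subtype.val hxy
    apply Quotient.sound'
    rw [QuotientGroup.leftRel_apply, ← cent_eq, Subgroup.mem_centralizer_iff]
    intro z hz
    rw [Set.mem_singleton_iff] at hz
    subst hz
    calc gA * (x⁻¹ * y) = x⁻¹ * (x * gA * x⁻¹) * y := by group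
      _ = x⁻¹ * (y * gA * y⁻¹) * y := by rw [h1]
      _ = (x⁻¹ * y) * gA := by group
  · rintro ⟨d, hd⟩
    obtain ⟨c, rfl⟩ := isConj_iff.1 hd
    exact ⟨QuotientGroup.mk c, rfl⟩

theorem cent_conj (g : Fi22) : HH.map ((MulAut.conj g : Fi22 ≃* Fi22) : Fi22 →* Fi22) =
    Subgroup.centralizer ({g * gA * g⁻¹} : Set Fi22) := by
  ext x
  rw [Subgroup.mem_centralizer_iff]
  constructor
  · rintro ⟨h, hh, rfl⟩ z hz
    rw [Set.mem_singleton_iff] at hz
    subst hz
    have c := a_central hh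
    change g * gA * g⁻¹ * (g * h * g⁻¹) = g * h * g⁻¹ * (g * gA * g⁻¹)
    calc g * gA * g⁻¹ * (g * h * g⁻¹) = g * (gA * h) * g⁻¹ := by group
      _ = g * (h * gA) * g⁻¹ := by rw [c]
      _ = g * h * g⁻¹ * (g * gA * g⁻¹) := by group
  · intro hx
    have h1 := hx _ rfl
    refine ⟨g⁻¹ * x * g, ?_, ?_⟩
    · rw [SetLike.mem_coe, ← cent_eq, Subgroup.mem_centralizer_iff]
      intro z hz
      rw [Set.mem_singleton_iff] at hz
      subst hz
      calc gA * (g⁻¹ * x * g) = g⁻¹ * (g * gA * g⁻¹ * x) * g := by group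
        _ = g⁻¹ * (x * (g * gA * g⁻¹)) * g := by rw [h1]
        _ = g⁻¹ * x * g * gA := by group
    · change g * (g⁻¹ * x * g) * g⁻¹ = x
      group

/-- the centraliser of a conjugate of `a` is isomorphic to the centraliser of `a` -/
noncomputable def eD (g : Fi22) : HH ≃* Subgroup.centralizer ({g * gA * g⁻¹} : Set Fi22) :=
  ((MulAut.conj g : Fi22 ≃* Fi22).subgroupMap HH).trans (MulEquiv.subgroupCongr (cent_conj g))

/-- a perfect non-split double cover transported along an isomorphism -/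
theorem transfer {H H' K : Type*} [Group H] [Group H'] [Group K] (e : H ≃* H')
    (hperf : commutator H = ⊤) (h : Cfsg.IsNonsplitDoubleCover H K) :
    Cfsg.IsNonsplitDoubleCover H' K := by
  obtain ⟨hc, ⟨f⟩, -⟩ := h
  have hmap : (Subgroup.center H).map (e : H →* H') = Subgroup.center H' := by
    ext x
    constructor
    · rintro ⟨z, hz, rfl⟩
      rw [Subgroup.mem_center_iff]
      intro g
      obtain ⟨g0, rfl⟩ := e.surjective g
      change e g0 * e z = e z * e g0
      rw [← map_mul, ← map_mul, Subgroup.mem_center_iff.1 hz g0]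
    · intro hx
      refine ⟨e.symm x, ?_, e.apply_symm_apply x⟩
      rw [SetLike.mem_coe, Subgroup.mem_center_iff]
      intro g
      apply e.injective
      rw [map_mul, map_mul, e.apply_symm_apply, Subgroup.mem_center_iff.1 hx (e g)]
  have hc' : Nat.card (Subgroup.center H') = 2 := by
    rw [← hmap, ← hc]
    exact Nat.card_congr (e.subgroupMap (Subgroup.center H)).symm.toEquiv
  have hperf' : commutator H' = ⊤ := by
    have h1 := Subgroup.map_commutator (⊤ : Subgroup H) ⊤ (e : H →* H')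
    rw [← _root_.commutator_def, hperf, Subgroup.map_top_of_surjective _ e.surjective,
      ← _root_.commutator_def] at h1
    exact h1.symm
  refine ⟨hc', ⟨?_⟩, no_complement hperf' hc'⟩
  exact (QuotientGroup.congr (Subgroup.center H) (Subgroup.center H') e hmap).symm.trans f

/-- **The Fischer group `Fi₂₂` as a group of 3-transpositions.** -/
theorem main : ∃ (G : Type) (_ : Group G) (_ : Finite G), Cfsg.IsFi22 G ∧ ∃ D : Set G,
    Cfsg.IsThreeTranspositionClass D ∧ Nat.card D = 3510 ∧ ∀ d ∈ D, ∃ (F : Type) (_ : Field F)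
      (_ : Fintype F), Fintype.card F = 4 ∧
      Cfsg.IsNonsplitDoubleCover (Subgroup.centralizer ({d} : Set G)) (Cfsg.PSU 6 F 2) := by
  refine ⟨Fi22, inferInstance, FiMain.finFi22, FiMain.fi22_main, conjugatesOf gA,
    ⟨three_set, ⟨gA, mem_conjugatesOf_self, rfl⟩, closure_D⟩, card_D, fun d hd => ?_⟩
  obtain ⟨g, rfl⟩ := isConj_iff.1 hd
  exact ⟨F4, inferInstance, inferInstance, F4.card, transfer (eD g) HH_perfect FiU6.main⟩

end Cfsg.Agent.Lib.Helper86.FiTr
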