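import Cfsg.Agent.Lib.Helper86.U62.FiUSlpDef

/-!
# Kernel checks of the straight-line program of the nodes for the centraliser of `a` in `Fi₂₂`,
part 0
-/

set_option autoImplicit false

namespace Cfsg.Agent.Lib.Helper86.FiU6Chk

open Cfsg.Agent.Lib.Helper86.FiU6Data Cfsg.Agent.Lib.Helper86.PermChain

set_option maxRecDepth 100000 in
theorem chk_slp_0 : slpBlk 0 = true := by decide +kernel

set_option maxRecDepth 100000 in
theorem chk_slp_1 : slpBlk 1 = true := by decide +kernel

set_option maxRecDepth 100000 in
theorem chk_slp_2 : slpBlk 2 = true := by decide +kernel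

set_option maxRecDepth 100000 in
theorem chk_slp_3 : slpBlk 3 = true := by decide +kernel

set_option maxRecDepth 100000 in
theorem chk_slp_4 : slpBlk 4 = true := by decide +kernel

set_option maxRecDepth 100000 in
theorem chk_slp_5 : slpBlk 5 = true := by decide +kernel

set_option maxRecDepth 100000 in
theorem chk_slp_6 : slpBlk 6 = true := by decide +kernel

end Cfsg.Agent.Lib.Helper86.FiU6Chk
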