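import Cfsg.Agent.Lib.Helper86.U62.FiUSlpDef

/-!
# Kernel checks of the straight-line program of the nodes for the centraliser of `a` in `Fi₂₂`,
part 1
-/

set_option autoImplicit false

namespace Cfsg.Agent.Lib.Helper86.FiU6Chk

open Cfsg.Agent.Lib.Helper86.FiU6Data Cfsg.Agent.Lib.Helper86.PermChain

set_option maxRecDepth 100000 in
theorem chk_slp_7 : slpBlk 7 = true := by decide +kernel

set_option maxRecDepth 100000 in
theorem chk_slp_8 : slpBlk 8 = true := by decide +kernel

set_option maxRecDepth 100000 in
theorem chk_slp_9 : slpBlk 9 = true := by decide +kernel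

set_option maxRecDepth 100000 in
theorem chk_slp_10 : slpBlk 10 = true := by decide +kernel

set_option maxRecDepth 100000 in
theorem chk_slp_11 : slpBlk 11 = true := by decide +kernel

set_option maxRecDepth 100000 in
theorem chk_slp_12 : slpBlk 12 = true := by decide +kernel

end Cfsg.Agent.Lib.Helper86.FiU6Chk
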