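import Cfsg.Agent.Lib.Helper86.U62.FiUSlpDef

/-!
# Kernel checks of the straight-line program of the nodes for the centraliser of `a` in `Fi₂₂`,
part 2
-/

set_option autoImplicit false

namespace Cfsg.Agent.Lib.Helper86.FiU6Chk

open Cfsg.Agent.Lib.Helper86.FiU6Data Cfsg.Agent.Lib.Helper86.PermChain

set_option maxRecDepth 100000 in
theorem chk_slp_13 : slpBlk 13 = true := by decide +kernel

set_option maxRecDepth 100000 in
theorem chk_slp_14 : slpBlk 14 = true := by decide +kernel

set_option maxRecDepth 100000 in
theorem chk_slp_15 : slpBlk 15 = true := by decide +kernel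

set_option maxRecDepth 100000 in
theorem chk_slp_16 : slpBlk 16 = true := by decide +kernel

set_option maxRecDepth 100000 in
theorem chk_slp_17 : slpBlk 17 = true := by decide +kernel

set_option maxRecDepth 100000 in
theorem chk_slp_18 : slpBlk 18 = true := by decide +kernel

end Cfsg.Agent.Lib.Helper86.FiU6Chk
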