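import Cfsg.Agent.Lib.Helper29.FiA.Data
import Cfsg.Agent.Lib.Helper86.U62.FiUSlp0
import Cfsg.Agent.Lib.Helper86.U62.FiUSlp1
import Cfsg.Agent.Lib.Helper86.U62.FiUSlp2
import Cfsg.Agent.Lib.Helper86.U62.FiUSlp3
import Cfsg.Agent.Lib.Helper86.U62.Pts

/-!
# Kernel checks for the action of the centraliser of `a` in `Fi₂₂` on 693 points and its comparison
with the special unitary group of dimension 6 over the field with four elements
-/

set_option autoImplicit false

namespace Cfsg.Agent.Lib.Helper86.FiU6Chk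

open Cfsg.Agent.Lib.Helper86.FiU6Data Cfsg.Agent.Lib.Helper86.PermChain
open Cfsg.Agent.Lib.Helper86.U62
open Cfsg.Agent.Lib.Helper29.TcPerm Cfsg.Agent.Lib.Helper29

/-- the generator words of the centraliser, as lists of columns: `a, c, …, i, (abcdeh)^5` -/
def wc : ℕ → List ℕ
  | 0 => [0]
  | 1 => [2]
  | 2 => [3]
  | 3 => [4]
  | 4 => [5]
  | 5 => [6]
  | 6 => [7]
  | 7 => [8]
  | _ => [0, 1, 2, 3, 4, 7, 0, 1, 2, 3, 4, 7, 0, 1, 2, 3, 4, 7, 0, 1, 2, 3, 4, 7, 0, 1, 2, 3, 4, 7]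

/-- the check at the point `45072 + 16 * i`: the generators act on it as their tables say -/
noncomputable def chkO (i : ℕ) : Bool :=
  Nat.beq (runL FiA.P (wc 0) (45072 + 16 * i)) (45072 + 16 * tb 0 i) &&
    Nat.beq (runL FiA.P (wc 1) (45072 + 16 * i)) (45072 + 16 * tb 1 i) &&
    Nat.beq (runL FiA.P (wc 2) (45072 + 16 * i)) (45072 + 16 * tb 2 i) &&
    Nat.beq (runL FiA.P (wc 3) (45072 + 16 * i)) (45072 + 16 * tb 3 i) &&
    Nat.beq (runL FiA.P (wc 4) (45072 + 16 * i)) (45072 + 16 * tb 4 i) &&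
    Nat.beq (runL FiA.P (wc 5) (45072 + 16 * i)) (45072 + 16 * tb 5 i) &&
    Nat.beq (runL FiA.P (wc 6) (45072 + 16 * i)) (45072 + 16 * tb 6 i) &&
    Nat.beq (runL FiA.P (wc 7) (45072 + 16 * i)) (45072 + 16 * tb 7 i) &&
    Nat.beq (runL FiA.P (wc 8) (45072 + 16 * i)) (45072 + 16 * tb 8 i)

set_option maxRecDepth 100000 in
theorem chkO_all : allLt (fun j => allLt (fun i =>
    Nat.ble 693 (256 * j + i) || chkO (256 * j + i)) 256) 3 = true := by
  decide +kernel

theorem chkO_of {i : ℕ} (hi : i < 693) : chkO i = true := by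
  have h1 := allLt_spec _ 3 chkO_all (i / 256) (by omega)
  have h2 := allLt_spec _ 256 h1 (i % 256) (Nat.mod_lt _ (by norm_num))
  rw [Nat.div_add_mod, Bool.or_eq_true, Nat.ble_eq] at h2
  rcases h2 with h | h
  · omega
  · exact h

theorem chk_orb {i : ℕ} (hi : i < 693) {s : ℕ} (hs : s < 9) :
    runL FiA.P (wc s) (45072 + 16 * i) = 45072 + 16 * tb s i := by
  have h := chkO_of hi
  unfold chkO at h
  simp only [Bool.and_eq_true, Nat.beq_eq] at h
  obtain ⟨⟨⟨⟨⟨⟨⟨⟨h0, h1⟩, h2⟩, h3⟩, h4⟩, h5⟩, h6⟩, h7⟩, h8⟩ := h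
  interval_cases s
  exacts [h0, h1, h2, h3, h4, h5, h6, h7, h8]

set_option maxRecDepth 100000 in
theorem chk_gens : ∀ k, k < 9 → ∀ p, p < 693 → tb k p < 693 ∧ tb k (tb k p) = p := by
  decide +kernel

set_option maxRecDepth 100000 in
theorem chk_id : ∀ p, p < 693 → tb 0 p = p := by decide +kernel

theorem slpBlk_all : ∀ j, j < 25 → slpBlk j = true := by
  intro j hj
  interval_cases j
  exacts [chk_slp_0, chk_slp_1, chk_slp_2, chk_slp_3, chk_slp_4, chk_slp_5, chk_slp_6, chk_slp_7, chk_slp_8, chk_slp_9, chk_slp_10, chk_slp_11, chk_slp_12, chk_slp_13, chk_slp_14, chk_slp_15, chk_slp_16, chk_slp_17, chk_slp_18, chk_slp_19, chk_slp_20, chk_slp_21, chk_slp_22, chk_slp_23, chk_slp_24]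

theorem chk_slp {k : ℕ} (h9 : 9 ≤ k) (hk : k < 1544) : slpOK tb si sj 693 k = true := by
  have h1 := slpBlk_all (k / 64) (by omega)
  unfold slpBlk at h1
  have h2 := allLt_spec _ 64 h1 (k % 64) (Nat.mod_lt _ (by norm_num))
  rw [Nat.div_add_mod] at h2
  simp only [Bool.or_eq_true, Nat.blt_eq, Nat.ble_eq] at h2
  rcases h2 with (h | h) | h
  · omega
  · omega
  · exact h

set_option maxRecDepth 100000 in
theorem chk_lv : lvlsOK tb 693 1544 [] lv = true := by decide +kernel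

theorem chk_prod : lvlsProd lv = 9196830720 := by decide +kernel

set_option maxRecDepth 100000 in
theorem chk_tr : ∀ q, q < 693 → trn q < 1544 ∧ tb (trn q) 1 = q := by decide +kernel

set_option maxRecDepth 100000 in
theorem chk_wt : ∀ q, q < 693 → q = 1 ∨ (wt q < 1544 ∧ tb (wt q) 1 = 1 ∧ tb (wt q) q ≠ q) := by
  decide +kernel

theorem hU : ∀ j, j < 8 → isoU (mc (j + 1)) := by decide +kernel

theorem hTv : ∀ j, j < 7 → isTv (mc (j + 1)) (uc (j + 1)) := by decide +kernel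

theorem hTv9 : isTv (tvc 9) (uc 9) := by decide +kernel

theorem hTv10 : isTv (tvc 10) (uc 10) := by decide +kernel

theorem hW : mkM (mc 8) = mkM (mc 1) * mkM (mc 3) * mkM (mc 6) * mkM (tvc 9) * mkM (tvc 10) := by
  decide +kernel

theorem hdet : ∀ j, j < 8 → (mkM (mc (j + 1))).det = 1 := by
  intro j hj
  by_cases h7 : j < 7
  · exact det_tv _ _ (hTv j h7)
  · have hj7 : j = 7 := by omega
    subst hj7
    rw [hW, Matrix.det_mul, Matrix.det_mul, Matrix.det_mul, Matrix.det_mul,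
      det_tv _ _ (hTv 0 (by norm_num)), det_tv _ _ (hTv 2 (by norm_num)),
      det_tv _ _ (hTv 5 (by norm_num)), det_tv _ _ hTv9, det_tv _ _ hTv10]
    simp

set_option maxRecDepth 100000 in
theorem chk_act : ∀ j, j < 8 → ∀ p, p < 693 → actN (mc (j + 1)) p = tb (j + 1) p := by
  decide +kernel

theorem a_moves : lk FiA.P 0 16 ≠ 16 := by decide +kernel

end Cfsg.Agent.Lib.Helper86.FiU6Chk
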