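import Cfsg.Agent.Lib.Helper29.FiMain

/-!
# Word identities in the presented Fischer group `Fi₂₂` for the centraliser of `a`

Checked on the faithful permutation representation on 3510 points: `(cdefghi)^9 = 1`,
`w^2 = 1` and `(wf)^3 = 1` for `w = (abcdeh)^5`, and `a w` as a product of five conjugates of `c`
under the centraliser of `a`.
-/

set_option autoImplicit false
set_option Elab.async false

namespace Cfsg.Agent.Lib.Helper86.FiU6Rel

open Cfsg.Agent.Lib.Helper29 Cfsg.Agent.Lib.Helper29.TcTrace Cfsg.Agent.Lib.Helper29.TcCert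
  Cfsg.Agent.Lib.Helper29.TcPerm Cfsg.Agent.Lib.Helper29.TcCox Cfsg.Agent.Lib.Helper29.OrdBasic
  Cfsg.Agent.Lib.Helper29.OrdCox Cfsg.Agent.Lib.Helper29.OrdPerm Cfsg.Spor
  Cfsg.Agent.Lib.Helper29.FiA

local notation "E" => Fi22.edges
local notation "X" => Fi22.extra
local notation "LW" => lw Fi22.edges Fi22.extra

/-- the tree of a generator -/
abbrev lf (x : Fi22.Gen) : WT Fi22.Gen := .leaf x true

/-- the trivial word `a a` -/
def tOne : WT Fi22.Gen := .mul (lf .a) (lf .a)

/-- the word `c d e f g h i` -/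
def tCox : WT Fi22.Gen :=
  .mul (lf .c) (.mul (lf .d) (.mul (lf .e) (.mul (lf .f) (.mul (lf .g) (.mul (lf .h) (lf .i))))))

def tCox3 : WT Fi22.Gen := .mul tCox (.mul tCox tCox)

def tCox9 : WT Fi22.Gen := .mul tCox3 (.mul tCox3 tCox3)

/-- `w w` -/
def tWW : WT Fi22.Gen := .mul w5 w5

/-- `(w f)^3` -/
def tWF3 : WT Fi22.Gen := .mul (.mul w5 (lf .f)) (.mul (.mul w5 (lf .f)) (.mul w5 (lf .f)))

/-- `d h e d` -/
def tG1 : WT Fi22.Gen := .mul (.mul (.mul (lf .d) (lf .h)) (lf .e)) (lf .d)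

/-- `f w e d h f e d` -/
def tG2 : WT Fi22.Gen :=
  .mul (.mul (.mul (.mul (.mul (.mul (.mul (lf .f) w5) (lf .e)) (lf .d)) (lf .h)) (lf .f)) (lf .e))
    (lf .d)

/-- `a w` -/
def tLhs : WT Fi22.Gen := .mul (lf .a) w5

/-- `c e h (d h e d) c (d h e d)⁻¹ (f w e d h f e d) c (f w e d h f e d)⁻¹` -/
def tRhs : WT Fi22.Gen :=
  .mul (.mul (.mul (.mul (lf .c) (lf .e)) (lf .h)) (WT.conj tG1 (lf .c))) (WT.conj tG2 (lf .c))

set_option maxRecDepth 100000 in
theorem r1_blk : ∀ k, k < 7 →
    allPts (fun q => Nat.beq (evT P colOf tCox9 false q) (evT P colOf tOne false q)) P.WL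
      (min 512 (3510 - 512 * k)) (P.WL * (512 * k)) = true := by
  intro k hk
  interval_cases k <;> decide +kernel

theorem r1_tree : lwT E X tCox9 = lwT E X tOne :=
  lwT_eq_of_chk ok FiMain.card_inj.2 _ _
    (allPts_blocks (fun q => Nat.beq (evT P colOf tCox9 false q) (evT P colOf tOne false q)) P.WL
      512 3510 7 (by decide) (by decide) r1_blk)

set_option maxRecDepth 100000 in
theorem r2_blk : ∀ k, k < 7 →
    allPts (fun q => Nat.beq (evT P colOf tWW false q) (evT P colOf tOne false q)) P.WL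
      (min 512 (3510 - 512 * k)) (P.WL * (512 * k)) = true := by
  intro k hk
  interval_cases k <;> decide +kernel

theorem r2_tree : lwT E X tWW = lwT E X tOne :=
  lwT_eq_of_chk ok FiMain.card_inj.2 _ _
    (allPts_blocks (fun q => Nat.beq (evT P colOf tWW false q) (evT P colOf tOne false q)) P.WL
      512 3510 7 (by decide) (by decide) r2_blk)

set_option maxRecDepth 100000 in
theorem r3_blk : ∀ k, k < 7 →
    allPts (fun q => Nat.beq (evT P colOf tWF3 false q) (evT P colOf tOne false q)) P.WL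
      (min 512 (3510 - 512 * k)) (P.WL * (512 * k)) = true := by
  intro k hk
  interval_cases k <;> decide +kernel

theorem r3_tree : lwT E X tWF3 = lwT E X tOne :=
  lwT_eq_of_chk ok FiMain.card_inj.2 _ _
    (allPts_blocks (fun q => Nat.beq (evT P colOf tWF3 false q) (evT P colOf tOne false q)) P.WL
      512 3510 7 (by decide) (by decide) r3_blk)

set_option maxRecDepth 100000 in
theorem r4_blk : ∀ k, k < 7 →
    allPts (fun q => Nat.beq (evT P colOf tLhs false q) (evT P colOf tRhs false q)) P.WL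
      (min 512 (3510 - 512 * k)) (P.WL * (512 * k)) = true := by
  intro k hk
  interval_cases k <;> decide +kernel

theorem r4_tree : lwT E X tLhs = lwT E X tRhs :=
  lwT_eq_of_chk ok FiMain.card_inj.2 _ _
    (allPts_blocks (fun q => Nat.beq (evT P colOf tLhs false q) (evT P colOf tRhs false q)) P.WL
      512 3510 7 (by decide) (by decide) r4_blk)


theorem one_eq : lwT E X tOne = 1 := by
  unfold tOne
  rw [lwT_mul]
  exact node_sq E X (FiMain.mem_nodes .a)

/-- the word `(c d e f g h i)^9` -/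
def w63 : List (Fi22.Gen × Bool) := tCox9.flat false

theorem r1 : LW w63 = 1 := r1_tree.trans one_eq

theorem r2 : lwT E X w5 * lwT E X w5 = 1 := by
  have h := r2_tree.trans one_eq
  unfold tWW at h
  rw [lwT_mul] at h
  exact h

theorem r3 : (lwT E X w5 * LW [(Fi22.Gen.f, true)]) ^ 3 = 1 := by
  have h := r3_tree.trans one_eq
  unfold tWF3 at h
  simp only [lwT_mul] at h
  rw [pow_three]
  exact h

theorem r4 : LW [(Fi22.Gen.a, true)] * lwT E X w5 =
    LW [(Fi22.Gen.c, true)] * LW [(Fi22.Gen.e, true)] * LW [(Fi22.Gen.h, true)] *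
      (lwT E X tG1 * LW [(Fi22.Gen.c, true)] * (lwT E X tG1)⁻¹) *
      (lwT E X tG2 * LW [(Fi22.Gen.c, true)] * (lwT E X tG2)⁻¹) := by
  have h := r4_tree
  unfold tLhs tRhs at h
  simp only [lwT_mul, lwT_conj] at h
  exact h

theorem g1_eq : lwT E X tG1 = LW [(Fi22.Gen.d, true)] * LW [(Fi22.Gen.h, true)] *
    LW [(Fi22.Gen.e, true)] * LW [(Fi22.Gen.d, true)] := by
  unfold tG1
  simp only [lwT_mul]
  rfl

theorem g2_eq : lwT E X tG2 = LW [(Fi22.Gen.f, true)] * lwT E X w5 * LW [(Fi22.Gen.e, true)] *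
    LW [(Fi22.Gen.d, true)] * LW [(Fi22.Gen.h, true)] * LW [(Fi22.Gen.f, true)] *
    LW [(Fi22.Gen.e, true)] * LW [(Fi22.Gen.d, true)] := by
  unfold tG2
  simp only [lwT_mul]
  rfl

end Cfsg.Agent.Lib.Helper86.FiU6Rel
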