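import Cfsg.Agent.Lib.Helper86.U62.FiUChk
import Cfsg.Agent.Lib.Helper86.U62.FiURel
import Cfsg.Prelude.Def_SporadicB

/-!
# The centraliser of `a` in the presented Fischer group `Fi₂₂` is a non-split double cover of `U₆(2)`

The subgroup `H = ⟨a, c, …, i, (abcdeh)^5⟩` has index 3510, hence order `2 · 9196830720`.  It acts
on its orbit of length 693 among the 3510 points; `a` acts trivially, and a stabiliser chain shows
that the image has at least `9196830720` elements.  The generators act as unitary transvections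
(and a product of five of them) on the 693 isotropic points of the hermitian space of dimension 6
over the field with four elements; as the special unitary group has at most `3 · 9196830720`
elements and contains the scalars of order 3, the image is that of the special unitary group and
the kernel of the latter is its centre.  Finally `H` is perfect, so that its centre has no
complement.
-/

set_option autoImplicit false

namespace Cfsg.Agent.Lib.Helper86.FiU6

open Cfsg.Agent.Lib.Helper86.FiU6Data Cfsg.Agent.Lib.Helper86.FiU6Chk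
open Cfsg.Agent.Lib.Helper86.PermChain Cfsg.Agent.Lib.Helper86.Sp4F4
open Cfsg.Agent.Lib.Helper29 Cfsg.Agent.Lib.Helper29.TcPerm Cfsg.Agent.Lib.Helper29.TcCox
open Cfsg.Agent.Lib.Helper29.OrdBasic Cfsg.Agent.Lib.Helper29.OrdCox
open Cfsg.Agent.Lib.Helper29.OrdQuot Cfsg.Agent.Lib.Helper29.OrdPerm Cfsg.Spor

local notation "LW" => lw Fi22.edges Fi22.extra
local notation "LT" => lwT Fi22.edges Fi22.extra

/-- the permutation representation of `Fi₂₂` on 3510 points -/
noncomputable abbrev φ : Fi22 →* Equiv.Perm ℕ := phi FiA.ok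

/-- the centraliser of `a` -/
abbrev HH : Subgroup Fi22 := Hsub Fi22.edges Fi22.extra FiA.hWords

/-- the orbit of length 693 -/
def Orb : Set ℕ := {x | x % 16 = 0 ∧ 45072 ≤ x ∧ x < 56160}

theorem orbit_eq : {y | ∃ h ∈ HH, φ h 45072 = y} = Orb :=
  cox_orbit FiA.ok 45072 56160 (by decide) (by decide) (by decide) (by decide)

theorem Orb_inv {h : Fi22} (hh : h ∈ HH) {q : ℕ} (hq : q ∈ Orb) : φ h q ∈ Orb := by
  rw [← orbit_eq] at hq ⊢
  obtain ⟨h', hh', rfl⟩ := hq
  exact ⟨h * h', HH.mul_mem hh hh', by rw [map_mul, Equiv.Perm.mul_apply]⟩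

/-- the index of a point in the orbit -/
def bk (q : ℕ) : Fin 693 := ⟨(q - 45072) / 16 % 693, Nat.mod_lt _ (by norm_num)⟩

/-- `g` acts on the orbit by `π` -/
def Spec (g : Fi22) (π : Equiv.Perm (Fin 693)) : Prop := ∀ q ∈ Orb, bk (φ g q) = π (bk q)

theorem bk_pt (i : ℕ) (hi : i < 693) : bk (45072 + 16 * i) = ⟨i, hi⟩ := by
  apply Fin.ext
  change (45072 + 16 * i - 45072) / 16 % 693 = i
  rw [Nat.add_sub_cancel_left, Nat.mul_div_cancel_left _ (by norm_num : 0 < 16),
    Nat.mod_eq_of_lt hi]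

theorem mem_Orb (i : ℕ) (hi : i < 693) : 45072 + 16 * i ∈ Orb := ⟨by omega, by omega, by omega⟩

theorem bk_surj (p : Fin 693) : ∃ q ∈ Orb, bk q = p :=
  ⟨45072 + 16 * p.1, mem_Orb p.1 p.2, bk_pt p.1 p.2⟩

theorem Orb_eq {q : ℕ} (hq : q ∈ Orb) : ∃ i, i < 693 ∧ q = 45072 + 16 * i := by
  obtain ⟨h1, h2, h3⟩ := hq
  exact ⟨(q - 45072) / 16, by omega, by omega⟩

theorem spec_unique {g : Fi22} {π π' : Equiv.Perm (Fin 693)} (h : Spec g π) (h' : Spec g π') :
    π = π' := by
  apply Equiv.ext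
  intro p
  obtain ⟨q, hq, rfl⟩ := bk_surj p
  rw [← h q hq, ← h' q hq]

theorem spec_one : Spec 1 1 := fun q _ => by rw [map_one]; rfl

theorem spec_mul {g₁ g₂ : Fi22} {π₁ π₂ : Equiv.Perm (Fin 693)} (h₁ : Spec g₁ π₁)
    (h₂ : Spec g₂ π₂) (hg₂ : g₂ ∈ HH) : Spec (g₁ * g₂) (π₁ * π₂) := by
  intro q hq
  rw [map_mul, Equiv.Perm.mul_apply, h₁ _ (Orb_inv hg₂ hq), h₂ q hq, Equiv.Perm.mul_apply]

theorem spec_inv {g : Fi22} {π : Equiv.Perm (Fin 693)} (h : Spec g π) (hg : g ∈ HH) :
    Spec g⁻¹ π⁻¹ := by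
  intro q hq
  have hq' := Orb_inv (HH.inv_mem hg) hq
  have := h _ hq'
  rw [← Equiv.Perm.mul_apply, ← map_mul, mul_inv_cancel, map_one, Equiv.Perm.one_apply] at this
  rw [this]
  exact (π.symm_apply_apply _).symm

/-- the generator words -/
def gw (s : ℕ) : List (Fi22.Gen × Bool) := FiA.hWords.getD s []

theorem gw_mem : ∀ s, s < 9 → gw s ∈ FiA.hWords := by decide

theorem gw_cols : ∀ s, s < 9 → (gw s).map FiA.colOf = wc s := by decide

theorem mem_gw : ∀ w ∈ FiA.hWords, ∃ s, s < 9 ∧ w = gw s := by decide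

theorem lw_mem_HH {s : ℕ} (hs : s < 9) : LW (gw s) ∈ HH :=
  Subgroup.subset_closure ⟨gw s, gw_mem s hs, rfl⟩

/-- the permutation of a generator on the orbit -/
noncomputable def gperm (s : ℕ) (hs : s < 9) : Equiv.Perm (Fin 693) where
  toFun p := ⟨tb s p.1 % 693, Nat.mod_lt _ (by norm_num)⟩
  invFun p := ⟨tb s p.1 % 693, Nat.mod_lt _ (by norm_num)⟩
  left_inv p := by
    obtain ⟨h1, h2⟩ := chk_gens s hs p.1 p.2
    apply Fin.ext
    change tb s (tb s p.1 % 693) % 693 = p.1
    rw [Nat.mod_eq_of_lt h1, h2, Nat.mod_eq_of_lt p.2]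
  right_inv p := by
    obtain ⟨h1, h2⟩ := chk_gens s hs p.1 p.2
    apply Fin.ext
    change tb s (tb s p.1 % 693) % 693 = p.1
    rw [Nat.mod_eq_of_lt h1, h2, Nat.mod_eq_of_lt p.2]

theorem gperm_apply (s : ℕ) (hs : s < 9) (p : Fin 693) :
    ((gperm s hs p : Fin 693) : ℕ) = tb s p.1 :=
  Nat.mod_eq_of_lt (chk_gens s hs p.1 p.2).1

theorem valid_pt (i : ℕ) (hi : i < 693) : ValidL FiA.P (45072 + 16 * i) :=
  (validL_iff _ _).2 ⟨by change (45072 + 16 * i) % 16 = 0; omega, by change _ < 56160; omega⟩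

theorem gen_act {s : ℕ} (hs : s < 9) {i : ℕ} (hi : i < 693) :
    φ (LW (gw s)) (45072 + 16 * i) = 45072 + 16 * tb s i := by
  rw [phi_lw_valid FiA.ok (gw s) _ (valid_pt i hi), gw_cols s hs]
  exact chk_orb hi hs

theorem spec_gen (s : ℕ) (hs : s < 9) : Spec (LW (gw s)) (gperm s hs) := by
  intro q hq
  obtain ⟨i, hi, rfl⟩ := Orb_eq hq
  rw [gen_act hs hi, bk_pt i hi, bk_pt _ (chk_gens s hs i hi).1]
  apply Fin.ext
  rw [gperm_apply]

/-- the elements of `H` acting on the orbit -/
def TT : Subgroup Fi22 where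
  carrier := {g | g ∈ HH ∧ ∃ π, Spec g π}
  one_mem' := ⟨HH.one_mem, 1, spec_one⟩
  mul_mem' := by
    rintro a b ⟨ha, π₁, h₁⟩ ⟨hb, π₂, h₂⟩
    exact ⟨HH.mul_mem ha hb, π₁ * π₂, spec_mul h₁ h₂ hb⟩
  inv_mem' := by
    rintro a ⟨ha, π, h⟩
    exact ⟨HH.inv_mem ha, π⁻¹, spec_inv h ha⟩

theorem HH_le_TT : HH ≤ TT := by
  change Subgroup.closure _ ≤ _
  rw [Subgroup.closure_le]
  rintro _ ⟨w, hw, rfl⟩
  obtain ⟨s, hs, rfl⟩ := mem_gw w hw
  exact ⟨lw_mem_HH hs, gperm s hs, spec_gen s hs⟩

theorem ex_spec (h : HH) : ∃ π, Spec h.1 π := (HH_le_TT h.2).2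

/-- the action of `H` on the 693 points -/
noncomputable def sig : HH →* Equiv.Perm (Fin 693) :=
  MonoidHom.mk' (fun h => Classical.choose (ex_spec h)) (fun a b =>
    spec_unique (Classical.choose_spec (ex_spec (a * b)))
      (spec_mul (Classical.choose_spec (ex_spec a)) (Classical.choose_spec (ex_spec b)) b.2))

theorem sig_spec (h : HH) : Spec h.1 (sig h) := Classical.choose_spec (ex_spec h)

/-- the generators as elements of `H` -/
noncomputable def xg (s : ℕ) (hs : s < 9) : HH := ⟨LW (gw s), lw_mem_HH hs⟩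

theorem sig_xg (s : ℕ) (hs : s < 9) : sig (xg s hs) = gperm s hs :=
  spec_unique (sig_spec _) (spec_gen s hs)

theorem good_base (k : ℕ) (hk : k < 9) : Good sig.range tb k :=
  ⟨sig (xg k hk), ⟨_, rfl⟩, fun p => by rw [sig_xg]; exact gperm_apply k hk p⟩

theorem good_nodes : ∀ k, k < 1544 → Good sig.range tb k :=
  good_all si sj 9 1544 good_base (fun _ h1 h2 => chk_slp h1 h2)

theorem card_range_ge : 9196830720 ≤ Nat.card sig.range := by
  rw [← chk_prod]
  exact card_ge sig.range tb si sj 9 1544 good_base (fun _ h1 h2 => chk_slp h1 h2) lv chk_lv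

theorem card_HH : Nat.card HH = 18393661440 := by
  have h1 := Subgroup.card_mul_index HH
  have hidx : HH.index = 3510 := (cox_index_stab FiA.ok).1
  rw [hidx, FiMain.card_inj.1] at h1
  have h2 : Nat.card HH * 3510 = 18393661440 * 3510 := by rw [h1]
  exact Nat.eq_of_mul_eq_mul_right (by norm_num) h2

theorem gen_top : Subgroup.closure {x : HH | ∃ s, ∃ hs : s < 9, xg s hs = x} = ⊤ := by
  rw [eq_top_iff, ← Subgroup.closure_closure_coe_preimage]
  apply Subgroup.closure_mono
  rintro ⟨x, hx⟩ ⟨w, hw, hwx⟩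
  obtain ⟨s, hs, rfl⟩ := mem_gw w hw
  exact ⟨s, hs, Subtype.ext hwx⟩

/-! ### the element `a` -/

theorem gw0 : gw 0 = [(Fi22.Gen.a, true)] := rfl

theorem gsq0 : LW (gw 0) * LW (gw 0) = 1 := by
  rw [gw0]
  exact node_sq Fi22.edges Fi22.extra (FiMain.mem_nodes .a)

/-- `a` as an element of `H` -/
noncomputable def xa : HH := xg 0 (by norm_num)

theorem sig_xa : sig xa = 1 := by
  unfold xa
  rw [sig_xg]
  apply Equiv.ext
  intro p
  apply Fin.ext
  rw [gperm_apply, Equiv.Perm.one_apply]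
  exact chk_id p.1 p.2

theorem gA_ne : LW (gw 0) ≠ 1 := by
  intro h
  have hv : ValidL FiA.P 16 :=
    (validL_iff _ _).2 ⟨by change 16 % 16 = 0; norm_num, by change 16 < 56160; norm_num⟩
  have h1 := phi_lw_valid FiA.ok (gw 0) 16 hv
  rw [h, map_one, Equiv.Perm.one_apply, gw_cols 0 (by norm_num)] at h1
  exact a_moves h1.symm

theorem xa_ne : xa ≠ 1 := fun h => gA_ne (congrArg Subtype.val h)

theorem xa_sq : xa * xa = 1 := Subtype.ext gsq0

theorem sq_zpow {G : Type*} [Group G] (g : G) (hg : g * g = 1) (k : ℤ) : g ^ k = 1 ∨ g ^ k = g := by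
  obtain ⟨m, rfl | rfl⟩ := Int.even_or_odd' k
  · left
    rw [zpow_mul, zpow_two, hg, one_zpow]
  · right
    rw [zpow_add_one, zpow_mul, zpow_two, hg, one_zpow, one_mul]

theorem a_central {h : Fi22} (hh : h ∈ HH) :
    h * LW [(Fi22.Gen.a, true)] = LW [(Fi22.Gen.a, true)] * h := by
  have hsq : LW [(Fi22.Gen.a, true)] * LW [(Fi22.Gen.a, true)] = 1 := gsq0
  have hne : LW [(Fi22.Gen.a, true)] ≠ 1 := gA_ne
  have h1 := FiMain.hnorm h hh (LW [(Fi22.Gen.a, true)]) (Subgroup.mem_zpowers _)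
  obtain ⟨k, hk⟩ := Subgroup.mem_zpowers_iff.1 h1
  rcases sq_zpow (LW [(Fi22.Gen.a, true)]) hsq k with h2 | h2
  · exfalso
    rw [h2] at hk
    apply hne
    calc LW [(Fi22.Gen.a, true)]
        = h⁻¹ * (h * LW [(Fi22.Gen.a, true)] * h⁻¹) * h := by group
      _ = 1 := by rw [← hk]; group
  · rw [h2] at hk
    calc h * LW [(Fi22.Gen.a, true)] = (h * LW [(Fi22.Gen.a, true)] * h⁻¹) * h := by group
      _ = LW [(Fi22.Gen.a, true)] * h := by rw [← hk]

theorem xa_central : xa ∈ Subgroup.center HH := by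
  rw [Subgroup.mem_center_iff]
  intro g
  exact Subtype.ext (a_central g.2)

/-! ### `H` is perfect -/

/-- the generators `a, c, …, i` -/
def gx : ℕ → Fi22.Gen
  | 0 => .a
  | 1 => .c
  | 2 => .d
  | 3 => .e
  | 4 => .f
  | 5 => .g
  | 6 => .h
  | _ => .i

theorem gw_eq : ∀ s, s < 8 → gw s = [(gx s, true)] := by decide

theorem xg_sq (s : ℕ) (hs : s < 8) : xg s (by omega) * xg s (by omega) = 1 := by
  apply Subtype.ext
  change LW (gw s) * LW (gw s) = 1
  rw [gw_eq s hs]
  exact node_sq Fi22.edges Fi22.extra (FiMain.mem_nodes (gx s))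

theorem xg_pair (s t : ℕ) (hs : s < 8) (ht : t < 8)
    (hlab : coxLabel Fi22.edges (gx s) (gx t) = 3) :
    (xg s (by omega) * xg t (by omega)) ^ 3 = 1 := by
  apply Subtype.ext
  rw [Subgroup.coe_pow, Subgroup.coe_mul, Subgroup.coe_one]
  change (LW (gw s) * LW (gw t)) ^ 3 = 1
  rw [gw_eq s hs, gw_eq t ht]
  have h := pair_pow (extra := Fi22.extra) (FiMain.mem_nodes (gx s)) (FiMain.mem_nodes (gx t))
  rw [hlab] at h
  exact h

/-- in a commutative group, two involutions whose product has order dividing 3 are equal -/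
theorem ab_eq {A : Type*} [CommGroup A] {x y : A} (hx : x * x = 1) (hy : y * y = 1)
    (h : (x * y) ^ 3 = 1) : x = y := by
  rw [mul_pow] at h
  have ex : x ^ 3 = x := by rw [pow_succ, pow_two, hx, one_mul]
  have ey : y ^ 3 = y := by rw [pow_succ, pow_two, hy, one_mul]
  rw [ex, ey] at h
  exact (mul_eq_one_iff_eq_inv.1 h).trans (inv_eq_of_mul_eq_one_left hy)

theorem edge_eq {A : Type*} [CommGroup A] (π : HH →* A) (s t : ℕ) (hs : s < 8) (ht : t < 8)
    (hlab : coxLabel Fi22.edges (gx s) (gx t) = 3) :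
    π (xg s (by omega)) = π (xg t (by omega)) := by
  apply ab_eq
  · rw [← map_mul, xg_sq s hs, map_one]
  · rw [← map_mul, xg_sq t ht, map_one]
  · rw [← map_mul, ← map_pow, xg_pair s t hs ht hlab, map_one]

theorem gx_surj (x : Fi22.Gen) (hx : x ≠ Fi22.Gen.a ∧ x ≠ Fi22.Gen.b) :
    ∃ s, ∃ _ : 1 ≤ s, ∃ _ : s < 8, gx s = x := by
  cases x
  · exact absurd rfl hx.1
  · exact absurd rfl hx.2
  · exact ⟨1, by norm_num, by norm_num, rfl⟩
  · exact ⟨2, by norm_num, by norm_num, rfl⟩
  · exact ⟨3, by norm_num, by norm_num, rfl⟩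
  · exact ⟨4, by norm_num, by norm_num, rfl⟩
  · exact ⟨5, by norm_num, by norm_num, rfl⟩
  · exact ⟨6, by norm_num, by norm_num, rfl⟩
  · exact ⟨7, by norm_num, by norm_num, rfl⟩

/-- if the generators `c, …, i` have the same image `z` in an abelian group, a word in them is
sent to a power of `z` -/
theorem ab_word {A : Type*} [CommGroup A] (π : HH →* A) (z : A)
    (hall : ∀ s (_ : 1 ≤ s) (hs : s < 8), π (xg s (by omega)) = z) :
    ∀ w : List (Fi22.Gen × Bool), (∀ l ∈ w, l.1 ≠ Fi22.Gen.a ∧ l.1 ≠ Fi22.Gen.b) →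
      ∃ hm : LW w ∈ HH, π ⟨LW w, hm⟩ = z ^ w.length := by
  intro w
  induction w with
  | nil =>
    intro _
    have h1 : LW ([] : List (Fi22.Gen × Bool)) = 1 := lw_nil _ _
    have hm : LW ([] : List (Fi22.Gen × Bool)) ∈ HH := by
      rw [h1]
      exact HH.one_mem
    refine ⟨hm, ?_⟩
    have h2 : (⟨LW ([] : List (Fi22.Gen × Bool)), hm⟩ : HH) = 1 := Subtype.ext h1
    rw [h2, map_one, List.length_nil, pow_zero]
  | cons l w ih =>
    intro hl
    obtain ⟨hm, hπ⟩ := ih (fun l' hl' => hl l' (List.mem_cons_of_mem _ hl'))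
    obtain ⟨x, b⟩ := l
    have hx : x ≠ Fi22.Gen.a ∧ x ≠ Fi22.Gen.b := hl (x, b) List.mem_cons_self
    obtain ⟨s, h1s, hs, rfl⟩ := gx_surj x hx
    have h1 : LW [(gx s, b)] = LW (gw s) := by
      rw [gw_eq s hs]
      cases b
      · exact node_inv Fi22.edges Fi22.extra (FiMain.mem_nodes _)
      · rfl
    have h2 : LW ((gx s, b) :: w) = (xg s (by omega) : Fi22) * LW w := by
      rw [lw_cons, h1]
      rfl
    have hm' : LW ((gx s, b) :: w) ∈ HH := by
      rw [h2]
      exact HH.mul_mem (xg s (by omega)).2 hm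
    refine ⟨hm', ?_⟩
    have h3 : (⟨LW ((gx s, b) :: w), hm'⟩ : HH) = xg s (by omega) * ⟨LW w, hm⟩ := Subtype.ext h2
    rw [h3, map_mul, hall s h1s hs, hπ, List.length_cons, pow_succ']

theorem w63_len : FiU6Rel.w63.length = 63 := by decide

theorem w63_ok : ∀ l ∈ FiU6Rel.w63, l.1 ≠ Fi22.Gen.a ∧ l.1 ≠ Fi22.Gen.b := by decide

/-- `(abcdeh)^5` as an element of `H` -/
noncomputable def xw : HH := xg 8 (by norm_num)

theorem hw : LW (gw 8) = LT FiA.w5 := rfl

theorem xw_sq : xw * xw = 1 := by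
  apply Subtype.ext
  change LW (gw 8) * LW (gw 8) = 1
  rw [hw]
  exact FiU6Rel.r2

theorem xw_f : (xw * xg 4 (by norm_num)) ^ 3 = 1 := by
  apply Subtype.ext
  rw [Subgroup.coe_pow, Subgroup.coe_mul, Subgroup.coe_one]
  change (LW (gw 8) * LW (gw 4)) ^ 3 = 1
  rw [hw]
  exact FiU6Rel.r3

/-- `d h e d` as an element of `H` -/
noncomputable def G1 : HH :=
  xg 2 (by norm_num) * xg 6 (by norm_num) * xg 3 (by norm_num) * xg 2 (by norm_num)

/-- `f w e d h f e d` as an element of `H` -/
noncomputable def G2 : HH :=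
  xg 4 (by norm_num) * xw * xg 3 (by norm_num) * xg 2 (by norm_num) * xg 6 (by norm_num) *
    xg 4 (by norm_num) * xg 3 (by norm_num) * xg 2 (by norm_num)

theorem xa_xw : xa * xw = xg 1 (by norm_num) * xg 3 (by norm_num) * xg 6 (by norm_num) *
    (G1 * xg 1 (by norm_num) * G1⁻¹) * (G2 * xg 1 (by norm_num) * G2⁻¹) := by
  apply Subtype.ext
  have h := FiU6Rel.r4
  rw [FiU6Rel.g1_eq, FiU6Rel.g2_eq] at h
  exact h

theorem HH_perfect : commutator HH = ⊤ := by
  have h12 := edge_eq (Abelianization.of : HH →* Abelianization HH) 1 2 (by norm_num)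
    (by norm_num) (by decide)
  have h23 := edge_eq (Abelianization.of : HH →* Abelianization HH) 2 3 (by norm_num)
    (by norm_num) (by decide)
  have h34 := edge_eq (Abelianization.of : HH →* Abelianization HH) 3 4 (by norm_num)
    (by norm_num) (by decide)
  have h45 := edge_eq (Abelianization.of : HH →* Abelianization HH) 4 5 (by norm_num)
    (by norm_num) (by decide)
  have h26 := edge_eq (Abelianization.of : HH →* Abelianization HH) 2 6 (by norm_num)
    (by norm_num) (by decide)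
  have h67 := edge_eq (Abelianization.of : HH →* Abelianization HH) 6 7 (by norm_num)
    (by norm_num) (by decide)
  have hall : ∀ s (_ : 1 ≤ s) (hs : s < 8), (Abelianization.of (xg s (by omega)) :
      Abelianization HH) = Abelianization.of (xg 1 (by norm_num)) := by
    intro s h1 hs
    match s, h1, hs with
    | 1, _, _ => rfl
    | 2, _, _ => exact h12.symm
    | 3, _, _ => exact (h12.trans h23).symm
    | 4, _, _ => exact (h12.trans (h23.trans h34)).symm
    | 5, _, _ => exact (h12.trans (h23.trans (h34.trans h45))).symm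
    | 6, _, _ => exact (h12.trans h26).symm
    | 7, _, _ => exact (h12.trans (h26.trans h67)).symm
    | 0, h, _ => exact absurd h (by norm_num)
    | (n + 8), _, h => exact absurd h (by omega)
  have hz : (Abelianization.of (xg 1 (by norm_num)) : Abelianization HH) *
      Abelianization.of (xg 1 (by norm_num)) = 1 := by
    rw [← map_mul, xg_sq 1 (by norm_num), map_one]
  obtain ⟨hm, hπ⟩ := ab_word (Abelianization.of : HH →* Abelianization HH) _ hall FiU6Rel.w63
    w63_ok
  have h1 : (⟨LW FiU6Rel.w63, hm⟩ : HH) = 1 := Subtype.ext FiU6Rel.r1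
  rw [h1, map_one, w63_len] at hπ
  have hu : (Abelianization.of (xg 1 (by norm_num)) : Abelianization HH) = 1 := by
    have e : (Abelianization.of (xg 1 (by norm_num)) : Abelianization HH) ^ 63 =
        Abelianization.of (xg 1 (by norm_num)) := by
      rw [show 63 = 2 * 31 + 1 from rfl, pow_succ, pow_mul, pow_two, hz, one_pow, one_mul]
    rw [← e]
    exact hπ.symm
  have hgen : ∀ s (h1 : 1 ≤ s) (hs : s < 8), (Abelianization.of (xg s (by omega)) :
      Abelianization HH) = 1 := fun s h1 hs => (hall s h1 hs).trans hu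
  have hw2 : (Abelianization.of xw : Abelianization HH) * Abelianization.of xw = 1 := by
    rw [← map_mul, xw_sq, map_one]
  have hw3 : (Abelianization.of xw : Abelianization HH) ^ 3 = 1 := by
    have h := congrArg (Abelianization.of : HH →* Abelianization HH) xw_f
    rw [map_pow, map_mul, map_one, hgen 4 (by norm_num) (by norm_num), mul_one] at h
    exact h
  have hxw : (Abelianization.of xw : Abelianization HH) = 1 := by
    rw [pow_three', hw2, one_mul] at hw3
    exact hw3
  have hxa : (Abelianization.of xa : Abelianization HH) = 1 := by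
    have h := congrArg (Abelianization.of : HH →* Abelianization HH) xa_xw
    simp only [map_mul, map_inv, hgen 1 (by norm_num) (by norm_num),
      hgen 3 (by norm_num) (by norm_num), hgen 6 (by norm_num) (by norm_num), hxw, mul_one,
      mul_inv_cancel] at h
    exact h
  rw [eq_top_iff, ← gen_top, Subgroup.closure_le]
  rintro _ ⟨s, hs, rfl⟩
  rw [SetLike.mem_coe, ← Abelianization.ker_of, MonoidHom.mem_ker]
  match s, hs with
  | 0, _ => exact hxa
  | 1, _ => exact hgen 1 (by norm_num) (by norm_num)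
  | 2, _ => exact hgen 2 (by norm_num) (by norm_num)
  | 3, _ => exact hgen 3 (by norm_num) (by norm_num)
  | 4, _ => exact hgen 4 (by norm_num) (by norm_num)
  | 5, _ => exact hgen 5 (by norm_num) (by norm_num)
  | 6, _ => exact hgen 6 (by norm_num) (by norm_num)
  | 7, _ => exact hgen 7 (by norm_num) (by norm_num)
  | 8, _ => exact hxw
  | (n + 9), h => exact absurd h (by omega)

/-- a central subgroup of order 2 of a perfect group has no complement -/
theorem no_complement {H : Type*} [Group H] (hperf : commutator H = ⊤)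
    (hc : Nat.card (Subgroup.center H) = 2) :
    ∀ L : Subgroup H, ¬ (Subgroup.center H).IsComplement' L := by
  intro L hL
  have hidx : L.index = 2 := by rw [hL.index_eq_card, hc]
  have hn : L.Normal := Subgroup.normal_of_index_eq_two hidx
  have hcard : Nat.card (H ⧸ L) = 2 := by rw [← Subgroup.index_eq_card, hidx]
  have : Fact (Nat.Prime 2) := ⟨Nat.prime_two⟩
  have : IsCyclic (H ⧸ L) := isCyclic_of_prime_card hcard
  let _ : CommGroup (H ⧸ L) := IsCyclic.commGroup
  have h := Abelianization.commutator_subset_ker (QuotientGroup.mk' L)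
  rw [QuotientGroup.ker_mk', hperf, top_le_iff] at h
  rw [h, Subgroup.index_top] at hidx
  omega

/-! ### comparison with the special unitary group -/

/-- the unitary matrices of the generators `c, …, i, (abcdeh)^5` -/
def gS (j : ℕ) (hj : j < 8) : U62.SU6 := U62.mkS (mc (j + 1)) (hdet j hj) (hU j hj)

theorem sig_xg_tau (j : ℕ) (hj : j < 8) : sig (xg (j + 1) (by omega)) = U62.tauS (gS j hj) := by
  apply Equiv.ext
  intro p
  apply Fin.ext
  rw [sig_xg, gperm_apply, gS, U62.tauS_mkS, chk_act j hj p.1 p.2]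

theorem range_le : sig.range ≤ U62.tauS.range := by
  rw [MonoidHom.range_eq_map, ← gen_top, MonoidHom.map_closure, Subgroup.closure_le]
  rintro _ ⟨_, ⟨s, hs, rfl⟩, rfl⟩
  match s, hs with
  | 0, _ =>
    have : sig (xg 0 (by norm_num)) = 1 := sig_xa
    rw [SetLike.mem_coe, this]
    exact Subgroup.one_mem _
  | (j + 1), h => exact ⟨gS j (by omega), (sig_xg_tau j (by omega)).symm⟩

theorem scal_order : orderOf U62.scal = 3 :=
  haveI : Fact (Nat.Prime 3) := ⟨Nat.prime_three⟩
  orderOf_eq_prime U62.scal_pow U62.scal_ne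

theorem scal_mem_ker : U62.scal ∈ U62.tauS.ker := U62.tauS_scal

theorem arith (k r S s k2 : ℕ) (hKR : k * r = S) (hS : S ≤ 27590492160) (hk3 : 3 ≤ k)
    (hle : s ≤ r) (hge : 9196830720 ≤ s) (hKR' : k2 * s = 18393661440) :
    r = 9196830720 ∧ s = 9196830720 ∧ k = 3 ∧ k2 = 2 := by
  have h3 : 3 * r ≤ k * r := Nat.mul_le_mul_right _ hk3
  have hr : r = 9196830720 := by omega
  have hs : s = 9196830720 := by omega
  subst hr
  subst hs
  exact ⟨rfl, rfl, by omega, by omega⟩

/-- the facts about orders, images and kernels -/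
theorem facts : sig.range = U62.tauS.range ∧ Nat.card U62.tauS.ker = 3 ∧ Nat.card sig.ker = 2 := by
  have hS := U62.card_SU_le
  have hzp : Subgroup.zpowers U62.scal ≤ U62.tauS.ker := by
    rw [Subgroup.zpowers_le]
    exact scal_mem_ker
  have hk3 : 3 ≤ Nat.card U62.tauS.ker := by
    have h1 : Nat.card (Subgroup.zpowers U62.scal) = 3 := by rw [Nat.card_zpowers, scal_order]
    rw [← h1]
    exact Subgroup.card_le_of_le hzp
  have hKR : Nat.card U62.tauS.ker * Nat.card U62.tauS.range = Nat.card U62.SU6 := by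
    have := Subgroup.card_mul_index U62.tauS.ker
    rwa [Subgroup.index_ker] at this
  have hle : Nat.card sig.range ≤ Nat.card U62.tauS.range := Subgroup.card_le_of_le range_le
  have hKR' : Nat.card sig.ker * Nat.card sig.range = 18393661440 := by
    have := Subgroup.card_mul_index sig.ker
    rwa [Subgroup.index_ker, card_HH] at this
  obtain ⟨hr, hr', hk, hk2⟩ := arith _ _ _ _ _ hKR hS hk3 hle card_range_ge hKR'
  exact ⟨Subgroup.eq_of_le_of_card_ge range_le (by rw [hr, hr']), hk, hk2⟩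

/-- a transitive permutation group in which the stabiliser of a point fixes no other point has a
trivial centraliser in the symmetric group -/
theorem center_bot_of_perm {n : ℕ} (R : Subgroup (Equiv.Perm (Fin n))) (b : Fin n)
    (htr : ∀ q : Fin n, ∃ x ∈ R, x b = q)
    (hfix : ∀ q : Fin n, q ≠ b → ∃ y ∈ R, y b = b ∧ y q ≠ q)
    (z : Equiv.Perm (Fin n)) (hc : ∀ g ∈ R, g * z = z * g) : z = 1 := by
  have hzb : z b = b := by
    by_contra hne
    obtain ⟨y, hy, hyb, hyq⟩ := hfix (z b) hne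
    have h := congrArg (fun f : Equiv.Perm (Fin n) => f b) (hc y hy)
    simp only [Equiv.Perm.mul_apply] at h
    rw [hyb] at h
    exact hyq h
  apply Equiv.ext
  intro q
  obtain ⟨x, hx, rfl⟩ := htr q
  have h := congrArg (fun f : Equiv.Perm (Fin n) => f b) (hc x hx)
  simp only [Equiv.Perm.mul_apply] at h
  rw [hzb] at h
  rw [Equiv.Perm.one_apply]
  exact h.symm

theorem range_tr (q : Fin 693) : ∃ x ∈ sig.range, x ⟨1, by norm_num⟩ = q := by
  obtain ⟨h1, h2⟩ := chk_tr q.1 q.2
  obtain ⟨x, hx, hx'⟩ := good_nodes _ h1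
  exact ⟨x, hx, Fin.ext ((hx' _).trans h2)⟩

theorem range_fix (q : Fin 693) (hq : q ≠ ⟨1, by norm_num⟩) :
    ∃ y ∈ sig.range, y ⟨1, by norm_num⟩ = ⟨1, by norm_num⟩ ∧ y q ≠ q := by
  rcases chk_wt q.1 q.2 with h | ⟨h1, h2, h3⟩
  · exact absurd (Fin.ext h) hq
  · obtain ⟨y, hy, hy'⟩ := good_nodes _ h1
    refine ⟨y, hy, Fin.ext ((hy' _).trans h2), fun h => h3 ?_⟩
    rw [← hy' q, h]

theorem center_HH : Subgroup.center HH = sig.ker := by
  obtain ⟨-, -, hk2⟩ := facts
  apply le_antisymm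
  · intro z hz
    rw [MonoidHom.mem_ker]
    apply center_bot_of_perm sig.range ⟨1, by norm_num⟩ range_tr range_fix
    rintro _ ⟨g, rfl⟩
    rw [← map_mul, ← map_mul, Subgroup.mem_center_iff.1 hz g]
  · have hzp : Subgroup.zpowers xa ≤ sig.ker := by
      rw [Subgroup.zpowers_le]
      exact sig_xa
    have hord : orderOf xa = 2 :=
      haveI : Fact (Nat.Prime 2) := ⟨Nat.prime_two⟩
      orderOf_eq_prime (by rw [pow_two]; exact xa_sq) xa_ne
    have heq : Subgroup.zpowers xa = sig.ker :=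
      Subgroup.eq_of_le_of_card_ge hzp (by rw [hk2, Nat.card_zpowers, hord])
    rw [← heq, Subgroup.zpowers_le]
    exact xa_central

theorem center_SU : Subgroup.center U62.SU6 = U62.tauS.ker := by
  obtain ⟨hrange, hk3, -⟩ := facts
  apply le_antisymm
  · intro z hz
    rw [MonoidHom.mem_ker]
    apply center_bot_of_perm sig.range ⟨1, by norm_num⟩ range_tr range_fix
    intro g hg
    rw [hrange] at hg
    obtain ⟨g', rfl⟩ := hg
    rw [← map_mul, ← map_mul, Subgroup.mem_center_iff.1 hz g']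
  · have hzp : Subgroup.zpowers U62.scal ≤ U62.tauS.ker := by
      rw [Subgroup.zpowers_le]
      exact scal_mem_ker
    have heq : Subgroup.zpowers U62.scal = U62.tauS.ker :=
      Subgroup.eq_of_le_of_card_ge hzp (by rw [hk3, Nat.card_zpowers, scal_order])
    rw [← heq, Subgroup.zpowers_le, Subgroup.mem_center_iff]
    exact U62.scal_central

/-- **Main theorem**: the centraliser of `a` in the presented `Fi₂₂` is a non-split double cover
of `PSU₆(2)`. -/
theorem main : Cfsg.IsNonsplitDoubleCover HH (Cfsg.PSU 6 F4 2) := by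
  obtain ⟨hrange, -, hk2⟩ := facts
  have hc : Nat.card (Subgroup.center HH) = 2 := by rw [center_HH, hk2]
  refine ⟨hc, ⟨?_⟩, no_complement HH_perfect hc⟩
  have e1 : HH ⧸ Subgroup.center HH ≃* HH ⧸ sig.ker := QuotientGroup.quotientMulEquivOfEq center_HH
  have e2 : HH ⧸ sig.ker ≃* sig.range := QuotientGroup.quotientKerEquivRange sig
  have e3 : sig.range ≃* U62.tauS.range := MulEquiv.subgroupCongr hrange
  have e4 : U62.SU6 ⧸ U62.tauS.ker ≃* U62.tauS.range := QuotientGroup.quotientKerEquivRange U62.tauS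
  have e5 : U62.SU6 ⧸ Subgroup.center U62.SU6 ≃* U62.SU6 ⧸ U62.tauS.ker :=
    QuotientGroup.quotientMulEquivOfEq center_SU
  exact ((e1.trans e2).trans e3).trans (e5.trans e4).symm

theorem set_eq : ({Fi22.a, Fi22.c, Fi22.d, Fi22.e, Fi22.f, Fi22.g, Fi22.h, Fi22.i,
    (Fi22.a * Fi22.b * Fi22.c * Fi22.d * Fi22.e * Fi22.h) ^ 5} : Set (FreeGroup Fi22.Gen)) =
    {x | x ∈ FiA.hWords.map FreeGroup.mk} := by
  ext x
  simp only [Set.mem_insert_iff, Set.mem_singleton_iff, Set.mem_ofPred_eq, FiA.hWords,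
    List.map_cons, List.map_nil, List.mem_cons, List.not_mem_nil, or_false]
  exact Iff.rfl

/-- the statement for the subgroup as a closure of words of the free group -/
theorem main' : ∃ (K : Type) (_ : Field K) (_ : Fintype K), Fintype.card K = 4 ∧
    Cfsg.IsNonsplitDoubleCover (((Subgroup.closure ({Fi22.a, Fi22.c, Fi22.d, Fi22.e, Fi22.f,
      Fi22.g, Fi22.h, Fi22.i, (Fi22.a * Fi22.b * Fi22.c * Fi22.d * Fi22.e * Fi22.h) ^ 5} :
      Set (FreeGroup Fi22.Gen))).map
      (PresentedGroup.mk (coxRelators Fi22.edges ∪ {r | r ∈ Fi22.extra})))) (Cfsg.PSU 6 K 2) := by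
  refine ⟨F4, inferInstance, inferInstance, F4.card, ?_⟩
  rw [set_eq, H_eq FiA.ok]
  exact main

end Cfsg.Agent.Lib.Helper86.FiU6
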