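import Cfsg.Prelude.Def_Classical
import Cfsg.Agent.Lib.Helper86.O73.Form

/-!
# The special unitary group of dimension 6 over the field with four elements

An upper bound for its order by the orbit–stabiliser theorem along the standard (orthonormal)
basis of the hermitian form `Σ uᵢ vᵢ²`.
-/

set_option autoImplicit false

namespace Cfsg.Agent.Lib.Helper86.U62

open Cfsg.Agent.Lib.Helper86.Sp4F4 Matrix

abbrev V := Fin 6 → F4
abbrev T6 := F4 × F4 × F4 × F4 × F4 × F4

/-- the special unitary group -/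
abbrev SU6 : Subgroup (Matrix.SpecialLinearGroup (Fin 6) F4) := Cfsg.SU 6 F4 2

/-- the hermitian form -/
abbrev Hf : V → V → F4 := Cfsg.hermForm 6 F4 2

/-- the vector with given coordinates -/
def tv (q : T6) : V := ![q.1, q.2.1, q.2.2.1, q.2.2.2.1, q.2.2.2.2.1, q.2.2.2.2.2]

/-- the coordinates of a vector -/
def vt (v : V) : T6 := (v 0, v 1, v 2, v 3, v 4, v 5)

theorem tv_vt (v : V) : tv (vt v) = v := by
  funext i
  fin_cases i <;> rfl

theorem vt_tv (q : T6) : vt (tv q) = q := rfl

theorem vt_add (u v : V) : vt (u + v) = vt u + vt v := rfl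

theorem vt_smul (l : F4) (u : V) : vt (l • u) = l • vt u := rfl

/-- the hermitian form in coordinates -/
def Ht (p q : T6) : F4 :=
  p.1 * q.1 ^ 2 + p.2.1 * q.2.1 ^ 2 + p.2.2.1 * q.2.2.1 ^ 2 + p.2.2.2.1 * q.2.2.2.1 ^ 2 +
    p.2.2.2.2.1 * q.2.2.2.2.1 ^ 2 + p.2.2.2.2.2 * q.2.2.2.2.2 ^ 2

theorem H_eq (u v : V) : Hf u v = Ht (vt u) (vt v) := by
  simp only [Hf, Cfsg.hermForm, Fin.sum_univ_six, Ht, vt]

/-- the action on vectors -/
instance actV : MulAction SU6 V where
  smul g v := (g.1.1 : Matrix (Fin 6) (Fin 6) F4) *ᵥ v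
  one_smul v := Matrix.one_mulVec v
  mul_smul g h v := by
    change (g.1.1 * h.1.1 : Matrix (Fin 6) (Fin 6) F4) *ᵥ v = g.1.1 *ᵥ (h.1.1 *ᵥ v)
    rw [Matrix.mulVec_mulVec]

theorem smul_def (g : SU6) (v : V) : g • v = (g.1.1 : Matrix (Fin 6) (Fin 6) F4) *ᵥ v := rfl

theorem H_smul (g : SU6) (u v : V) : Hf (g • u) (g • v) = Hf u v := g.2 u v

theorem smul_add' (g : SU6) (u v : V) : g • (u + v) = g • u + g • v := Matrix.mulVec_add _ _ _

theorem smul_smul' (g : SU6) (l : F4) (u : V) : g • (l • u) = l • (g • u) :=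
  Matrix.mulVec_smul _ _ _

theorem smul_ne_zero' (g : SU6) (v : V) (hv : v ≠ 0) : g • v ≠ 0 := by
  intro h
  apply hv
  have : g⁻¹ • (g • v) = v := inv_smul_smul g v
  rw [← this, h, smul_def, Matrix.mulVec_zero]

/-- the standard basis -/
def E (k : ℕ) : V := fun i => if i.1 = k then 1 else 0

/-- the standard basis, in coordinates -/
def Et (k : ℕ) : T6 := vt (E k)

theorem mulVec_E (M : Matrix (Fin 6) (Fin 6) F4) (j i : Fin 6) : (M *ᵥ E j.1) i = M i j := by
  simp only [Matrix.mulVec, dotProduct, E]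
  rw [Finset.sum_eq_single j]
  · rw [if_pos rfl, mul_one]
  · intro b _ hb
    rw [if_neg (fun h => hb (Fin.ext h)), mul_zero]
  · intro h
    exact absurd (Finset.mem_univ j) h

theorem H_E (u : V) (j : Fin 6) : Hf u (E j.1) = u j := by
  simp only [Hf, Cfsg.hermForm, E]
  rw [Finset.sum_eq_single j]
  · rw [if_pos rfl, one_pow, mul_one]
  · intro b _ hb
    rw [if_neg (fun h => hb (Fin.ext h)), zero_pow (by norm_num), mul_zero]
  · intro h
    exact absurd (Finset.mem_univ j) h

/-- the pointwise stabiliser of the first `k` basis vectors -/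
def Fx (k : ℕ) : Subgroup SU6 where
  carrier := {g | ∀ j, j < k → g • E j = E j}
  one_mem' := fun j _ => one_smul _ _
  mul_mem' := by
    intro a b ha hb j hj
    rw [mul_smul, hb j hj, ha j hj]
  inv_mem' := by
    intro a ha j hj
    have := ha j hj
    rw [← this, inv_smul_smul, this]

/-- the condition on the image of the `k`-th basis vector -/
def pred (k : ℕ) (q : T6) : Prop := Ht q q = 1 ∧ ∀ j, j < k → Ht q (Et j) = 0

instance (k : ℕ) : DecidablePred (pred k) := fun q => by unfold pred; infer_instance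

/-- the numbers of possible images -/
def nn : ℕ → ℕ
  | 0 => 2016
  | 1 => 528
  | 2 => 120
  | 3 => 36
  | _ => 6

set_option maxRecDepth 100000 in
theorem count_le : ∀ k, k < 5 → (Finset.univ.filter (pred k)).card ≤ nn k := by decide +kernel

theorem Ht_E : ∀ k, k < 6 → ∀ j, j < k → Ht (Et k) (Et k) = 1 ∧ Ht (Et k) (Et j) = 0 := by decide

theorem step (k : ℕ) (hk : k < 5) : Nat.card (Fx k) ≤ nn k * Nat.card (Fx (k + 1)) := by
  apply Cfsg.Agent.Lib.Helper86.O73.card_le_mul_fix (Fx k) (Fx (k + 1)) (E k) (nn k)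
    {u : V | pred k (vt u)} (Set.toFinite _)
  · have hsub : {u : V | pred k (vt u)} ⊆
        tv '' ((Finset.univ.filter (pred k) : Finset T6) : Set T6) := by
      intro u hu
      exact ⟨vt u, by simpa using hu, tv_vt u⟩
    calc ({u : V | pred k (vt u)}).ncard
        ≤ (tv '' ((Finset.univ.filter (pred k) : Finset T6) : Set T6)).ncard :=
          Set.ncard_le_ncard hsub (Set.toFinite _)
      _ ≤ ((Finset.univ.filter (pred k) : Finset T6) : Set T6).ncard :=
          Set.ncard_image_le (Set.toFinite _)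
      _ = (Finset.univ.filter (pred k)).card := Set.ncard_coe_finset _
      _ ≤ nn k := count_le k hk
  · intro g hg
    refine ⟨?_, fun j hj => ?_⟩
    · rw [← H_eq, H_smul, H_eq]
      change Ht (Et k) (Et k) = 1
      rcases Nat.eq_zero_or_pos k with rfl | hpos
      · decide
      · exact (Ht_E k (by omega) 0 hpos).1
    · have h1 : Ht (vt (g • E k)) (Et j) = Hf (g • E k) (g • E j) := by
        rw [hg j hj, H_eq]
        rfl
      rw [h1, H_smul, H_eq]
      exact (Ht_E k (by omega) j hj).2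
  · intro g hg hgk j hj
    rcases Nat.lt_succ_iff_lt_or_eq.1 hj with h | rfl
    · exact hg j h
    · exact hgk

theorem Fx_five : Fx 5 = ⊥ := by
  rw [Subgroup.eq_bot_iff_forall]
  intro g hg
  have hcol : ∀ j : Fin 6, j.1 < 5 → ∀ i : Fin 6, (g.1.1 : Matrix (Fin 6) (Fin 6) F4) i j =
      E j.1 i := by
    intro j hj i
    have := congrFun (hg j.1 hj) i
    rw [smul_def, mulVec_E] at this
    exact this
  have hlast : ∀ i : Fin 6, i.1 < 5 → (g.1.1 : Matrix (Fin 6) (Fin 6) F4) i 5 = 0 := by
    intro i hi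
    have h1 : Hf (g • E 5) (E i.1) = 0 := by
      have h2 : Hf (g • E 5) (g • E i.1) = Hf (E 5) (E i.1) := H_smul g _ _
      rw [hg i.1 hi] at h2
      rw [h2, H_E]
      unfold E
      rw [if_neg (by omega)]
    rw [H_E, smul_def] at h1
    have h3 := mulVec_E (g.1.1 : Matrix (Fin 6) (Fin 6) F4) 5 i
    rw [← h3]
    exact h1
  have hdiag : (g.1.1 : Matrix (Fin 6) (Fin 6) F4) =
      Matrix.diagonal (fun i : Fin 6 => if i = 5 then (g.1.1 : Matrix (Fin 6) (Fin 6) F4) 5 5
        else 1) := by
    ext i j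
    by_cases hj : j.1 < 5
    · rw [hcol j hj i]
      unfold E
      by_cases hij : i = j
      · subst hij
        rw [if_pos rfl, Matrix.diagonal_apply_eq, if_neg (fun h => by rw [h] at hj; omega)]
      · rw [if_neg (fun h => hij (Fin.ext h)), Matrix.diagonal_apply_ne _ hij]
    · have hj5 : j = 5 := Fin.ext (by have := j.2; omega)
      subst hj5
      by_cases hi : i.1 < 5
      · rw [hlast i hi, Matrix.diagonal_apply_ne _ (fun h => by rw [h] at hi; omega)]
      · have hi5 : i = 5 := Fin.ext (by have := i.2; omega)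
        subst hi5
        rw [Matrix.diagonal_apply_eq, if_pos rfl]
  have hdet : (g.1.1 : Matrix (Fin 6) (Fin 6) F4).det = 1 := g.1.2
  rw [hdiag, Matrix.det_diagonal, Fin.prod_univ_six] at hdet
  simp only [show ((0 : Fin 6) = 5) = False from by decide, show ((1 : Fin 6) = 5) = False from by decide,
    show ((2 : Fin 6) = 5) = False from by decide, show ((3 : Fin 6) = 5) = False from by decide,
    show ((4 : Fin 6) = 5) = False from by decide, if_false, if_true, one_mul] at hdet
  have hone : (g.1.1 : Matrix (Fin 6) (Fin 6) F4) = 1 := by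
    rw [hdiag, hdet]
    ext i j
    by_cases hij : i = j
    · subst hij
      rw [Matrix.diagonal_apply_eq, Matrix.one_apply_eq]
      split <;> rfl
    · rw [Matrix.diagonal_apply_ne _ hij, Matrix.one_apply_ne hij]
  apply Subtype.ext
  apply Subtype.ext
  exact hone

theorem Fx_zero : Fx 0 = ⊤ := by
  rw [eq_top_iff]
  intro g _ j hj
  exact absurd hj (Nat.not_lt_zero j)

/-- the order of the special unitary group is at most `27590492160` -/
theorem card_SU_le : Nat.card SU6 ≤ 27590492160 := by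
  have h0 := step 0 (by norm_num)
  have h1 := step 1 (by norm_num)
  have h2 := step 2 (by norm_num)
  have h3 := step 3 (by norm_num)
  have h4 := step 4 (by norm_num)
  have h5 : Nat.card (Fx 5) = 1 := by rw [Fx_five, Subgroup.card_bot]
  have h8 : Nat.card (Fx 0) = Nat.card SU6 := by rw [Fx_zero, Subgroup.card_top]
  simp only [nn] at h0 h1 h2 h3 h4
  rw [h5] at h4
  rw [h8] at h0
  calc Nat.card SU6 ≤ 2016 * Nat.card (Fx 1) := h0
    _ ≤ 2016 * (528 * Nat.card (Fx 2)) := Nat.mul_le_mul_left _ h1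
    _ ≤ 2016 * (528 * (120 * Nat.card (Fx 3))) := by gcongr
    _ ≤ 2016 * (528 * (120 * (36 * Nat.card (Fx 4)))) := by gcongr
    _ ≤ 2016 * (528 * (120 * (36 * (6 * 1)))) := by gcongr
    _ = 27590492160 := by norm_num

end Cfsg.Agent.Lib.Helper86.U62
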